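import Cfsg.Agent.G2.A

/-! The root elements of `G₂(F)` in the model `M`. -/

set_option autoImplicit false

namespace G2

open Cfsg.Lie Matrix

variable {F : Type*} [Field F]

/-- integer coefficients of the root elements -/
def cf (D : ChevalleyDatum) (r : Fin D.nroots) (row col : D.Idx) : List (ℕ × ℤ) :=
  match col with
  | Sum.inl i =>
    (match row with
     | Sum.inl i' => if i' = i then [(0, 1)] else []
     | Sum.inr u => if u = r then [(1, -((D.cartanSR.getD i.val #[]).getD r.val 0))] else [])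
  | Sum.inr s =>
    if s = r then (match row with | Sum.inr u => if u = r then [(0, 1)] else [] | Sum.inl _ => [])
    else if s.val = D.negIdx.getD r.val 0 then
      (match row with
       | Sum.inl i => [(1, (D.coroot.getD r.val #[]).getD i.val 0)]
       | Sum.inr u => if u = s then [(0, 1)] else if u = r then [(2, -1)] else [])
    else
      (match row with
       | Sum.inl _ => []
       | Sum.inr u => (if u = s then [(0, 1)] else []) ++ D.chainCoeff r.val s.val u.val)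

def ev (t : F) (l : List (ℕ × ℤ)) : F := (l.map fun km => ((km.2 : ℤ) : F) * t ^ km.1).sum

theorem xMat_eq (D : ChevalleyDatum) (r : Fin D.nroots) (t : F) (row col : D.Idx) :
    D.xMat F r t row col = ev t (cf D r row col) := by
  unfold ChevalleyDatum.xMat cf ev
  rcases col with i | s <;> rcases row with i' | u <;> simp only [of_apply] <;> split_ifs <;> simp

abbrev I := Fin 2 ⊕ Fin 12

def cols : List I := [.inl 0, .inl 1, .inr 0, .inr 1, .inr 2, .inr 3, .inr 4, .inr 5, .inr 6,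
  .inr 7, .inr 8, .inr 9, .inr 10, .inr 11]

def cfI (r : Fin 12) (row col : I) : List (ℕ × ℤ) := cf chevG2 r row col

def sp (r : Fin 12) (row : I) : List (I × ℕ × ℤ) :=
  cols.flatMap fun c => ((cfI r row c).filter (·.2 ≠ 0)).map fun e => (c, e)

def evs (t : F) (v : I → F) (l : List (I × ℕ × ℤ)) : F :=
  (l.map fun e => ((e.2.2 : ℤ) : F) * t ^ e.2.1 * v e.1).sum

theorem evs_one (t : F) (v : I → F) (c : I) (l : List (ℕ × ℤ)) :
    evs t v ((l.filter (·.2 ≠ 0)).map fun e => (c, e)) = ev t l * v c := by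
  induction l with
  | nil => simp [evs, ev]
  | cons a l ih =>
    unfold evs ev at *
    by_cases h : a.2 = 0
    · rw [List.filter_cons_of_neg (by simp [h]), ih]; simp [h]
    · rw [List.filter_cons_of_pos (by simp [h]), List.map_cons, List.map_cons, List.sum_cons, ih]
      simp [add_mul]

theorem evs_app (t : F) (v : I → F) (l l' : List (I × ℕ × ℤ)) :
    evs t v (l ++ l') = evs t v l + evs t v l' := by simp [evs]

/-- a root element as a matrix indexed by `I` -/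
def xm (r : Fin 12) (t : F) : Matrix I I F := chevG2.xMat F r t

theorem mv (r : Fin 12) (t : F) (v : I → F) (row : I) :
    (xm r t *ᵥ v) row = evs t v (sp r row) := by
  have e : ∀ c, xm r t row c = ev t (cfI r row c) := fun c => xMat_eq chevG2 r t row c
  have e2 : ∀ f : I → F, ∑ c, f c = (cols.map f).sum := fun f => by
    simp [Fintype.sum_sum_type, Fin.sum_univ_succ, cols, add_assoc]
  simp only [mulVec, dotProduct, e, e2, sp]
  induction cols with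
  | nil => simp [evs]
  | cons a l ih => rw [List.map_cons, List.sum_cons, List.flatMap_cons, evs_app, evs_one, ih]

theorem ext_I {u v : I → F} (h : cols.map u = cols.map v) : u = v := by
  funext i
  exact List.map_inj_left.1 h i (by rcases i with i | i <;> fin_cases i <;> simp [cols])

def io (x : M F) : I → F :=
  Sum.elim ![x.p0 + x.q0, 2 * x.p0]
    ![x.p2, x.d0, -x.d1, -x.d2, x.q2, -x.d3, x.c0, x.q1, -x.c1, x.c2, x.c3, x.p1]

theorem mv' (r : Fin 12) (t : F) (v : I → F) :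
    cols.map (xm r t *ᵥ v) = (cols.map (sp r)).map (evs t v) := by
  rw [List.map_map]; exact List.map_congr_left fun i _ => mv r t v i

theorem sp0 : cols.map (sp 0) =
    [[(.inl 0, 0, 1), (.inr 11, 1, -1)],
     [(.inl 1, 0, 1), (.inr 11, 1, -2)],
     [(.inl 1, 1, 1), (.inr 0, 0, 1), (.inr 11, 2, -1)],
     [(.inr 1, 0, 1), (.inr 6, 1, 1)],
     [(.inr 2, 0, 1), (.inr 8, 1, 1)],
     [(.inr 3, 0, 1), (.inr 9, 1, -1)],
     [(.inr 4, 0, 1)],
     [(.inr 5, 0, 1), (.inr 10, 1, -1)],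
     [(.inr 6, 0, 1)],
     [(.inr 7, 0, 1)],
     [(.inr 8, 0, 1)],
     [(.inr 9, 0, 1)],
     [(.inr 10, 0, 1)],
     [(.inr 11, 0, 1)]] := by
  decide +kernel

theorem gen0 (t : F) (x : M F) : xm 0 t *ᵥ io x = io (X0 t x) := by
  refine ext_I ?_
  rw [mv', sp0]
  simp [evs, cols, io, X0]
  repeat' constructor
  all_goals ring

theorem sp1 : cols.map (sp 1) =
    [[(.inl 0, 0, 1), (.inr 10, 1, -1)],
     [(.inl 1, 0, 1), (.inr 10, 1, -1)],
     [(.inr 0, 0, 1), (.inr 5, 1, 1)],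
     [(.inl 0, 1, 3), (.inl 1, 1, -1), (.inr 1, 0, 1), (.inr 10, 2, -1)],
     [(.inr 2, 0, 1), (.inr 7, 1, 1)],
     [(.inr 3, 0, 1)],
     [(.inr 4, 0, 1), (.inr 9, 1, -1)],
     [(.inr 5, 0, 1)],
     [(.inr 6, 0, 1), (.inr 11, 1, -1)],
     [(.inr 7, 0, 1)],
     [(.inr 8, 0, 1)],
     [(.inr 9, 0, 1)],
     [(.inr 10, 0, 1)],
     [(.inr 11, 0, 1)]] := by
  decide +kernel

theorem gen1 (t : F) (x : M F) : xm 1 (2 * t) *ᵥ io x = io (X1 t x) := by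
  refine ext_I ?_
  rw [mv', sp1]
  simp [evs, cols, io, X1]
  repeat' constructor
  all_goals ring

theorem sp2 : cols.map (sp 2) =
    [[(.inl 0, 0, 1), (.inr 9, 1, -2)],
     [(.inl 1, 0, 1), (.inr 9, 1, -3)],
     [(.inr 0, 0, 1), (.inr 3, 1, 3), (.inr 7, 2, -3), (.inr 10, 3, 1)],
     [(.inr 1, 0, 1), (.inr 4, 1, 3), (.inr 8, 2, 3), (.inr 11, 3, -1)],
     [(.inl 0, 1, 1), (.inr 2, 0, 1), (.inr 9, 2, -1)],
     [(.inr 3, 0, 1), (.inr 7, 1, -2), (.inr 10, 2, 1)],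
     [(.inr 4, 0, 1), (.inr 8, 1, 2), (.inr 11, 2, -1)],
     [(.inr 5, 0, 1)],
     [(.inr 6, 0, 1)],
     [(.inr 7, 0, 1), (.inr 10, 1, -1)],
     [(.inr 8, 0, 1), (.inr 11, 1, -1)],
     [(.inr 9, 0, 1)],
     [(.inr 10, 0, 1)],
     [(.inr 11, 0, 1)]] := by
  decide +kernel

theorem gen2 (t : F) (x : M F) : xm 2 (2 * t) *ᵥ io x = io (X2 t x) := by
  refine ext_I ?_
  rw [mv', sp2]
  simp [evs, cols, io, X2]
  repeat' constructor
  all_goals ring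

theorem sp3 : cols.map (sp 3) =
    [[(.inl 0, 0, 1), (.inr 8, 1, -1)],
     [(.inl 1, 0, 1), (.inr 8, 1, -3)],
     [(.inr 0, 0, 1), (.inr 2, 1, -3), (.inr 4, 2, 3), (.inr 6, 3, 1)],
     [(.inr 1, 0, 1)],
     [(.inr 2, 0, 1), (.inr 4, 1, -2), (.inr 6, 2, -1)],
     [(.inl 0, 1, -1), (.inl 1, 1, 1), (.inr 3, 0, 1), (.inr 8, 2, -1)],
     [(.inr 4, 0, 1), (.inr 6, 1, 1)],
     [(.inr 5, 0, 1), (.inr 7, 1, -3), (.inr 9, 2, -3), (.inr 11, 3, -1)],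
     [(.inr 6, 0, 1)],
     [(.inr 7, 0, 1), (.inr 9, 1, 2), (.inr 11, 2, 1)],
     [(.inr 8, 0, 1)],
     [(.inr 9, 0, 1), (.inr 11, 1, 1)],
     [(.inr 10, 0, 1)],
     [(.inr 11, 0, 1)]] := by
  decide +kernel

theorem gen3 (t : F) (x : M F) : xm 3 (2 * t) *ᵥ io x = io (X3 t x) := by
  refine ext_I ?_
  rw [mv', sp3]
  simp [evs, cols, io, X3]
  repeat' constructor
  all_goals ring

theorem sp4 : cols.map (sp 4) =
    [[(.inl 0, 0, 1), (.inr 7, 1, -1)],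
     [(.inl 1, 0, 1)],
     [(.inr 0, 0, 1)],
     [(.inr 1, 0, 1), (.inr 2, 1, -3), (.inr 3, 2, -3), (.inr 5, 3, -1)],
     [(.inr 2, 0, 1), (.inr 3, 1, 2), (.inr 5, 2, 1)],
     [(.inr 3, 0, 1), (.inr 5, 1, 1)],
     [(.inl 0, 1, 2), (.inl 1, 1, -1), (.inr 4, 0, 1), (.inr 7, 2, -1)],
     [(.inr 5, 0, 1)],
     [(.inr 6, 0, 1), (.inr 8, 1, -3), (.inr 9, 2, 3), (.inr 10, 3, 1)],
     [(.inr 7, 0, 1)],
     [(.inr 8, 0, 1), (.inr 9, 1, -2), (.inr 10, 2, -1)],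
     [(.inr 9, 0, 1), (.inr 10, 1, 1)],
     [(.inr 10, 0, 1)],
     [(.inr 11, 0, 1)]] := by
  decide +kernel

theorem gen4 (t : F) (x : M F) : xm 4 t *ᵥ io x = io (X4 t x) := by
  refine ext_I ?_
  rw [mv', sp4]
  simp [evs, cols, io, X4]
  repeat' constructor
  all_goals ring

theorem sp5 : cols.map (sp 5) =
    [[(.inl 0, 0, 1)],
     [(.inl 1, 0, 1), (.inr 6, 1, -1)],
     [(.inr 0, 0, 1), (.inr 1, 1, -1)],
     [(.inr 1, 0, 1)],
     [(.inr 2, 0, 1)],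
     [(.inr 3, 0, 1), (.inr 4, 1, -1)],
     [(.inr 4, 0, 1)],
     [(.inl 0, 1, -3), (.inl 1, 1, 2), (.inr 5, 0, 1), (.inr 6, 2, -1)],
     [(.inr 6, 0, 1)],
     [(.inr 7, 0, 1), (.inr 8, 1, 1)],
     [(.inr 8, 0, 1)],
     [(.inr 9, 0, 1)],
     [(.inr 10, 0, 1), (.inr 11, 1, 1)],
     [(.inr 11, 0, 1)]] := by
  decide +kernel

theorem gen5 (t : F) (x : M F) : xm 5 (2 * t) *ᵥ io x = io (X5 t x) := by
  refine ext_I ?_
  rw [mv', sp5]
  simp [evs, cols, io, X5]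
  repeat' constructor
  all_goals ring

theorem sp6 : cols.map (sp 6) =
    [[(.inl 0, 0, 1)],
     [(.inl 1, 0, 1), (.inr 5, 1, 1)],
     [(.inr 0, 0, 1)],
     [(.inr 0, 1, -1), (.inr 1, 0, 1)],
     [(.inr 2, 0, 1)],
     [(.inr 3, 0, 1)],
     [(.inr 3, 1, -1), (.inr 4, 0, 1)],
     [(.inr 5, 0, 1)],
     [(.inl 0, 1, 3), (.inl 1, 1, -2), (.inr 5, 2, -1), (.inr 6, 0, 1)],
     [(.inr 7, 0, 1)],
     [(.inr 7, 1, 1), (.inr 8, 0, 1)],
     [(.inr 9, 0, 1)],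
     [(.inr 10, 0, 1)],
     [(.inr 10, 1, 1), (.inr 11, 0, 1)]] := by
  decide +kernel

theorem gen6 (t : F) (x : M F) : xm 6 (2 * t) *ᵥ io x = io (X6 t x) := by
  refine ext_I ?_
  rw [mv', sp6]
  simp [evs, cols, io, X6]
  repeat' constructor
  all_goals ring

theorem sp7 : cols.map (sp 7) =
    [[(.inl 0, 0, 1), (.inr 4, 1, 1)],
     [(.inl 1, 0, 1)],
     [(.inr 0, 0, 1)],
     [(.inr 1, 0, 1)],
     [(.inr 1, 1, -1), (.inr 2, 0, 1)],
     [(.inr 1, 2, -1), (.inr 2, 1, 2), (.inr 3, 0, 1)],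
     [(.inr 4, 0, 1)],
     [(.inr 1, 3, -1), (.inr 2, 2, 3), (.inr 3, 1, 3), (.inr 5, 0, 1)],
     [(.inr 6, 0, 1)],
     [(.inl 0, 1, -2), (.inl 1, 1, 1), (.inr 4, 2, -1), (.inr 7, 0, 1)],
     [(.inr 6, 1, -1), (.inr 8, 0, 1)],
     [(.inr 6, 2, 1), (.inr 8, 1, -2), (.inr 9, 0, 1)],
     [(.inr 6, 3, 1), (.inr 8, 2, -3), (.inr 9, 1, 3), (.inr 10, 0, 1)],
     [(.inr 11, 0, 1)]] := by
  decide +kernel

theorem gen7 (t : F) (x : M F) : xm 7 t *ᵥ io x = io (X7 t x) := by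
  refine ext_I ?_
  rw [mv', sp7]
  simp [evs, cols, io, X7]
  repeat' constructor
  all_goals ring

theorem sp8 : cols.map (sp 8) =
    [[(.inl 0, 0, 1), (.inr 3, 1, 1)],
     [(.inl 1, 0, 1), (.inr 3, 1, 3)],
     [(.inr 0, 0, 1)],
     [(.inr 1, 0, 1)],
     [(.inr 0, 1, -1), (.inr 2, 0, 1)],
     [(.inr 3, 0, 1)],
     [(.inr 0, 2, 1), (.inr 2, 1, -2), (.inr 4, 0, 1)],
     [(.inr 5, 0, 1)],
     [(.inr 0, 3, 1), (.inr 2, 2, -3), (.inr 4, 1, 3), (.inr 6, 0, 1)],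
     [(.inr 5, 1, -1), (.inr 7, 0, 1)],
     [(.inl 0, 1, 1), (.inl 1, 1, -1), (.inr 3, 2, -1), (.inr 8, 0, 1)],
     [(.inr 5, 2, -1), (.inr 7, 1, 2), (.inr 9, 0, 1)],
     [(.inr 10, 0, 1)],
     [(.inr 5, 3, -1), (.inr 7, 2, 3), (.inr 9, 1, 3), (.inr 11, 0, 1)]] := by
  decide +kernel

theorem gen8 (t : F) (x : M F) : xm 8 (2 * t) *ᵥ io x = io (X8 t x) := by
  refine ext_I ?_
  rw [mv', sp8]
  simp [evs, cols, io, X8]
  repeat' constructor
  all_goals ring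

theorem sp9 : cols.map (sp 9) =
    [[(.inl 0, 0, 1), (.inr 2, 1, 2)],
     [(.inl 1, 0, 1), (.inr 2, 1, 3)],
     [(.inr 0, 0, 1)],
     [(.inr 1, 0, 1)],
     [(.inr 2, 0, 1)],
     [(.inr 0, 1, 1), (.inr 3, 0, 1)],
     [(.inr 1, 1, 1), (.inr 4, 0, 1)],
     [(.inr 5, 0, 1)],
     [(.inr 6, 0, 1)],
     [(.inr 0, 2, -1), (.inr 3, 1, -2), (.inr 7, 0, 1)],
     [(.inr 1, 2, 1), (.inr 4, 1, 2), (.inr 8, 0, 1)],
     [(.inl 0, 1, -1), (.inr 2, 2, -1), (.inr 9, 0, 1)],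
     [(.inr 0, 3, 1), (.inr 3, 2, 3), (.inr 7, 1, -3), (.inr 10, 0, 1)],
     [(.inr 1, 3, -1), (.inr 4, 2, -3), (.inr 8, 1, -3), (.inr 11, 0, 1)]] := by
  decide +kernel

theorem gen9 (t : F) (x : M F) : xm 9 (2 * t) *ᵥ io x = io (X9 t x) := by
  refine ext_I ?_
  rw [mv', sp9]
  simp [evs, cols, io, X9]
  repeat' constructor
  all_goals ring

theorem sp10 : cols.map (sp 10) =
    [[(.inl 0, 0, 1), (.inr 1, 1, 1)],
     [(.inl 1, 0, 1), (.inr 1, 1, 1)],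
     [(.inr 0, 0, 1)],
     [(.inr 1, 0, 1)],
     [(.inr 2, 0, 1)],
     [(.inr 3, 0, 1)],
     [(.inr 4, 0, 1)],
     [(.inr 0, 1, 1), (.inr 5, 0, 1)],
     [(.inr 6, 0, 1)],
     [(.inr 2, 1, 1), (.inr 7, 0, 1)],
     [(.inr 8, 0, 1)],
     [(.inr 4, 1, -1), (.inr 9, 0, 1)],
     [(.inl 0, 1, -3), (.inl 1, 1, 1), (.inr 1, 2, -1), (.inr 10, 0, 1)],
     [(.inr 6, 1, -1), (.inr 11, 0, 1)]] := by
  decide +kernel

theorem gen10 (t : F) (x : M F) : xm 10 (2 * t) *ᵥ io x = io (X10 t x) := by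
  refine ext_I ?_
  rw [mv', sp10]
  simp [evs, cols, io, X10]
  repeat' constructor
  all_goals ring

theorem sp11 : cols.map (sp 11) =
    [[(.inl 0, 0, 1), (.inr 0, 1, 1)],
     [(.inl 1, 0, 1), (.inr 0, 1, 2)],
     [(.inr 0, 0, 1)],
     [(.inr 1, 0, 1)],
     [(.inr 2, 0, 1)],
     [(.inr 3, 0, 1)],
     [(.inr 4, 0, 1)],
     [(.inr 5, 0, 1)],
     [(.inr 1, 1, 1), (.inr 6, 0, 1)],
     [(.inr 7, 0, 1)],
     [(.inr 2, 1, 1), (.inr 8, 0, 1)],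
     [(.inr 3, 1, -1), (.inr 9, 0, 1)],
     [(.inr 5, 1, -1), (.inr 10, 0, 1)],
     [(.inl 1, 1, -1), (.inr 0, 2, -1), (.inr 11, 0, 1)]] := by
  decide +kernel

theorem gen11 (t : F) (x : M F) : xm 11 t *ᵥ io x = io (X11 t x) := by
  refine ext_I ?_
  rw [mv', sp11]
  simp [evs, cols, io, X11]
  repeat' constructor
  all_goals ring

end G2
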