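import Cfsg.Agent.G2.B

/-! The action of `G₂(F)` and of `GL₂ × GL₂` on the model `M`. -/

set_option autoImplicit false
set_option linter.unusedSectionVars false

namespace G2

open Cfsg.Lie Matrix
open scoped MatrixGroups

variable {F : Type*} [Field F]

instance : Add (M F) := ⟨fun x y => ⟨x.p0 + y.p0, x.p1 + y.p1, x.p2 + y.p2, x.q0 + y.q0,
  x.q1 + y.q1, x.q2 + y.q2, x.c0 + y.c0, x.c1 + y.c1, x.c2 + y.c2, x.c3 + y.c3, x.d0 + y.d0,
  x.d1 + y.d1, x.d2 + y.d2, x.d3 + y.d3⟩⟩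

instance : SMul F (M F) := ⟨fun a y => ⟨a * y.p0, a * y.p1, a * y.p2, a * y.q0,
  a * y.q1, a * y.q2, a * y.c0, a * y.c1, a * y.c2, a * y.c3, a * y.d0,
  a * y.d1, a * y.d2, a * y.d3⟩⟩

theorem add_def (x y : M F) : x + y = ⟨x.p0 + y.p0, x.p1 + y.p1, x.p2 + y.p2, x.q0 + y.q0,
  x.q1 + y.q1, x.q2 + y.q2, x.c0 + y.c0, x.c1 + y.c1, x.c2 + y.c2, x.c3 + y.c3, x.d0 + y.d0,
  x.d1 + y.d1, x.d2 + y.d2, x.d3 + y.d3⟩ := rfl

theorem smul_def (a : F) (y : M F) : a • y = ⟨a * y.p0, a * y.p1, a * y.p2, a * y.q0,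
  a * y.q1, a * y.q2, a * y.c0, a * y.c1, a * y.c2, a * y.c3, a * y.d0,
  a * y.d1, a * y.d2, a * y.d3⟩ := rfl

def oi (v : I → F) : M F :=
  ⟨v (.inl 1) / 2, v (.inr 11), v (.inr 0), v (.inl 0) - v (.inl 1) / 2, v (.inr 7), v (.inr 4),
   v (.inr 6), -v (.inr 8), v (.inr 9), v (.inr 10), v (.inr 1), -v (.inr 2), -v (.inr 3),
   -v (.inr 5)⟩

theorem oi_add (u v : I → F) : oi (u + v) = oi u + oi v := by
  ext <;> simp only [oi, add_def, Pi.add_apply] <;> ring

theorem oi_smul (a : F) (v : I → F) : oi (a • v) = a • oi v := by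
  ext <;> simp only [oi, smul_def, Pi.smul_apply, smul_eq_mul] <;> ring

theorem io_add (x y : M F) : io (x + y) = io x + io y := by
  refine ext_I ?_
  simp [cols, io, add_def]
  repeat' constructor
  all_goals ring

theorem io_smul (a : F) (x : M F) : io (a • x) = a • io x := by
  refine ext_I ?_
  simp [cols, io, smul_def]
  repeat' constructor
  all_goals ring

variable (h2 : (2 : F) ≠ 0)

include h2 in
theorem io_oi (v : I → F) : io (oi v) = v := by
  refine ext_I ?_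
  simp [cols, io, oi]
  field_simp

include h2 in
theorem oi_io (x : M F) : oi (io x) = x := by
  ext <;> simp [io, oi] <;> field_simp <;> ring

def ac (A : Matrix I I F) (x : M F) : M F := oi (A *ᵥ io x)

/-- the action of the general linear group on `M` -/
def al : GL chevG2.Idx F →* Equiv.Perm (M F) :=
  MonoidHom.toHomPerm
    { toFun := fun g => ac (show Matrix I I F from g.1)
      map_one' := funext fun x => by
        show oi ((1 : Matrix I I F) *ᵥ io x) = x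
        rw [one_mulVec, oi_io h2]
      map_mul' := fun g h => funext fun x => by
        show oi (((show Matrix I I F from g.1) * (show Matrix I I F from h.1)) *ᵥ io x) =
          oi ((show Matrix I I F from g.1) *ᵥ io (oi ((show Matrix I I F from h.1) *ᵥ io x)))
        rw [io_oi h2, mulVec_mulVec] }

theorem al_apply (g : GL chevG2.Idx F) (x : M F) :
    al h2 g x = ac (show Matrix I I F from g.1) x := rfl

include h2 in
theorem ac_eq_one {A : Matrix I I F} (h : ∀ x, ac A x = x) : A = 1 := by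
  refine Matrix.ext_of_mulVec_single fun j => ?_
  have := congrArg io (h (oi (Pi.single j 1)))
  rw [ac, io_oi h2, io_oi h2] at this
  rw [this, one_mulVec]

theorem al_inj : Function.Injective (al h2) :=
  (injective_iff_map_eq_one _).2 fun _ hg => Units.ext
    (ac_eq_one h2 fun x => congrArg (fun φ : Equiv.Perm (M F) => φ x) hg)

/-- linear maps -/
structure Lin (φ : M F → M F) : Prop where
  add : ∀ x y, φ (x + y) = φ x + φ y
  smul : ∀ (a : F) x, φ (a • x) = a • φ x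

theorem lin_al (g : GL chevG2.Idx F) : Lin (al h2 g) :=
  ⟨fun x y => by rw [al_apply, al_apply, al_apply, ac, io_add, mulVec_add, oi_add]; rfl,
    fun a x => by rw [al_apply, al_apply, ac, io_smul, mulVec_smul, oi_smul]; rfl⟩

/-- maps preserving the bracket -/
def Br (φ : M F → M F) : Prop := ∀ x y, br (φ x) (φ y) = φ (br x y)

include h2 in
theorem ac_of {A : Matrix I I F} {f : M F → M F} (h : ∀ x, A *ᵥ io x = io (f x)) : ac A = f :=
  funext fun x => by rw [ac, h, oi_io h2]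

include h2 in
theorem br_xm (r : Fin 12) (t : F) : Br (ac (xm r t)) := by
  obtain ⟨s, hs⟩ : ∃ s, t = 2 * s := ⟨t / 2, by field_simp⟩
  fin_cases r
  · exact ac_of h2 (gen0 t) ▸ br_X0 t
  · exact hs ▸ ac_of h2 (gen1 s) ▸ br_X1 s
  · exact hs ▸ ac_of h2 (gen2 s) ▸ br_X2 s
  · exact hs ▸ ac_of h2 (gen3 s) ▸ br_X3 s
  · exact ac_of h2 (gen4 t) ▸ br_X4 t
  · exact hs ▸ ac_of h2 (gen5 s) ▸ br_X5 s
  · exact hs ▸ ac_of h2 (gen6 s) ▸ br_X6 s
  · exact ac_of h2 (gen7 t) ▸ br_X7 t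
  · exact hs ▸ ac_of h2 (gen8 s) ▸ br_X8 s
  · exact hs ▸ ac_of h2 (gen9 s) ▸ br_X9 s
  · exact hs ▸ ac_of h2 (gen10 s) ▸ br_X10 s
  · exact ac_of h2 (gen11 t) ▸ br_X11 t

theorem br_al {g : GL chevG2.Idx F} (hg : g ∈ chevG2.group F) : Br (al h2 g) := by
  induction hg using Subgroup.closure_induction with
  | mem g hg =>
    obtain ⟨r, t, e⟩ := hg
    have := br_xm h2 r t
    intro x y
    rw [al_apply, al_apply, al_apply, e]
    exact this x y
  | one => intro x y; simp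
  | mul g h _ _ h1 h3 =>
    intro x y
    simp only [map_mul, Equiv.Perm.mul_apply]
    rw [h1, h3]
  | inv g _ h1 =>
    intro x y
    apply (al h2 g).injective
    rw [← h1]
    simp

/-- the image of `G₂(F)` -/
def Ga : Subgroup (Equiv.Perm (M F)) := (chevG2.group F).map (al h2)

theorem mem_Ga {φ : Equiv.Perm (M F)} {r : Fin 12} {t t' : F} {g : M F → M F}
    (h : ∀ x, xm r t *ᵥ io x = io (φ x)) (h' : ∀ x, xm r t' *ᵥ io x = io (g x))
    (e : ∀ x, φ (g x) = x) : φ ∈ Ga h2 := by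
  have e1 : xm r t * xm r t' = 1 := ac_eq_one h2 fun x => by
    rw [ac, ← mulVec_mulVec, h', h, e, oi_io h2]
  refine ⟨⟨xm r t, xm r t', e1, mul_eq_one_comm.1 e1⟩, Subgroup.subset_closure ⟨r, t, rfl⟩, ?_⟩
  ext1 x
  exact congrFun (ac_of h2 h) x

/-! ### `GL₂ × GL₂` -/

def R1 (a b c d e : F) (x : M F) : M F :=
  ⟨e * ((a * d + b * c) * x.p0 - a * c * x.p1 + b * d * x.p2),
   e * (-(2 * a * b * x.p0) + a ^ 2 * x.p1 - b ^ 2 * x.p2),
   e * (2 * c * d * x.p0 - c ^ 2 * x.p1 + d ^ 2 * x.p2), x.q0, x.q1, x.q2,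
   a * x.c0 + b * x.d0, a * x.c1 + b * x.d1, a * x.c2 + b * x.d2, a * x.c3 + b * x.d3,
   c * x.c0 + d * x.d0, c * x.c1 + d * x.d1, c * x.c2 + d * x.d2, c * x.c3 + d * x.d3⟩

def R2 (a b c d e : F) (x : M F) : M F :=
  ⟨x.p0, x.p1, x.p2, e * ((a * d + b * c) * x.q0 - a * c * x.q1 + b * d * x.q2),
   e * (-(2 * a * b * x.q0) + a ^ 2 * x.q1 - b ^ 2 * x.q2),
   e * (2 * c * d * x.q0 - c ^ 2 * x.q1 + d ^ 2 * x.q2),
   e ^ 2 * (d ^ 3 * x.c0 + 3 * c * d ^ 2 * x.c1 + 3 * c ^ 2 * d * x.c2 + c ^ 3 * x.c3),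
   e ^ 2 * (b * d ^ 2 * x.c0 + (a * d ^ 2 + 2 * b * c * d) * x.c1 +
     (2 * a * c * d + b * c ^ 2) * x.c2 + a * c ^ 2 * x.c3),
   e ^ 2 * (b ^ 2 * d * x.c0 + (2 * a * b * d + b ^ 2 * c) * x.c1 +
     (a ^ 2 * d + 2 * a * b * c) * x.c2 + a ^ 2 * c * x.c3),
   e ^ 2 * (b ^ 3 * x.c0 + 3 * a * b ^ 2 * x.c1 + 3 * a ^ 2 * b * x.c2 + a ^ 3 * x.c3),
   e ^ 2 * (d ^ 3 * x.d0 + 3 * c * d ^ 2 * x.d1 + 3 * c ^ 2 * d * x.d2 + c ^ 3 * x.d3),
   e ^ 2 * (b * d ^ 2 * x.d0 + (a * d ^ 2 + 2 * b * c * d) * x.d1 +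
     (2 * a * c * d + b * c ^ 2) * x.d2 + a * c ^ 2 * x.d3),
   e ^ 2 * (b ^ 2 * d * x.d0 + (2 * a * b * d + b ^ 2 * c) * x.d1 +
     (a ^ 2 * d + 2 * a * b * c) * x.d2 + a ^ 2 * c * x.d3),
   e ^ 2 * (b ^ 3 * x.d0 + 3 * a * b ^ 2 * x.d1 + 3 * a ^ 2 * b * x.d2 + a ^ 3 * x.d3)⟩

theorem R1_mul (a b c d e a' b' c' d' e' : F) (x : M F) :
    R1 (a * a' + b * c') (a * b' + b * d') (c * a' + d * c') (c * b' + d * d') (e * e') x =
      R1 a b c d e (R1 a' b' c' d' e' x) := by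
  ext <;> simp only [R1] <;> ring

theorem R2_mul (a b c d e a' b' c' d' e' : F) (x : M F) :
    R2 (a * a' + b * c') (a * b' + b * d') (c * a' + d * c') (c * b' + d * d') (e * e') x =
      R2 a b c d e (R2 a' b' c' d' e' x) := by
  ext <;> simp only [R2] <;> ring

theorem R12 (a b c d e a' b' c' d' e' : F) (x : M F) :
    R1 a b c d e (R2 a' b' c' d' e' x) = R2 a' b' c' d' e' (R1 a b c d e x) := by
  ext <;> simp only [R1, R2] <;> ring

theorem lin_R1 (a b c d e : F) : Lin (R1 a b c d e) :=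
  ⟨fun x y => by ext <;> simp only [R1, add_def] <;> ring,
    fun a x => by ext <;> simp only [R1, smul_def] <;> ring⟩

theorem lin_R2 (a b c d e : F) : Lin (R2 a b c d e) :=
  ⟨fun x y => by ext <;> simp only [R2, add_def] <;> ring,
    fun a x => by ext <;> simp only [R2, smul_def] <;> ring⟩

/-- the determinant as a field element -/
def dt (g : GL (Fin 2) F) : F := g 0 0 * g 1 1 - g 0 1 * g 1 0

theorem dt_eq (g : GL (Fin 2) F) : dt g = (GeneralLinearGroup.det g : F) := by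
  rw [dt, GeneralLinearGroup.val_det_apply, det_fin_two]

theorem dt_ne (g : GL (Fin 2) F) : dt g ≠ 0 := by rw [dt_eq]; exact Units.ne_zero _

theorem dt_mul (g h : GL (Fin 2) F) : dt (g * h) = dt g * dt h := by
  simp only [dt_eq, map_mul, Units.val_mul]

theorem gl_mul (g h : GL (Fin 2) F) (i j : Fin 2) :
    (g * h) i j = g i 0 * h 0 j + g i 1 * h 1 j := by
  simp [Matrix.mul_apply, Fin.sum_univ_two]

def r1 : GL (Fin 2) F →* Equiv.Perm (M F) :=
  MonoidHom.toHomPerm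
    { toFun := fun g => R1 (g 0 0) (g 0 1) (g 1 0) (g 1 1) (dt g)⁻¹
      map_one' := funext fun x => by show _ = x; ext <;> simp [R1, dt]
      map_mul' := fun g h => funext fun x => by
        simp only [gl_mul, dt_mul, mul_inv]; exact R1_mul .. }

def r2 : GL (Fin 2) F →* Equiv.Perm (M F) :=
  MonoidHom.toHomPerm
    { toFun := fun g => R2 (g 0 0) (g 0 1) (g 1 0) (g 1 1) (dt g)⁻¹
      map_one' := funext fun x => by show _ = x; ext <;> simp [R2, dt]
      map_mul' := fun g h => funext fun x => by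
        simp only [gl_mul, dt_mul, mul_inv]; exact R2_mul .. }

theorem r1_apply (g : GL (Fin 2) F) (x : M F) :
    r1 g x = R1 (g 0 0) (g 0 1) (g 1 0) (g 1 1) (dt g)⁻¹ x := rfl

theorem r2_apply (g : GL (Fin 2) F) (x : M F) :
    r2 g x = R2 (g 0 0) (g 0 1) (g 1 0) (g 1 1) (dt g)⁻¹ x := rfl

theorem r12 (g h : GL (Fin 2) F) : Commute (r1 g) (r2 h) :=
  Equiv.ext fun _ => R12 ..

def rho : GL (Fin 2) F × GL (Fin 2) F →* Equiv.Perm (M F) := r1.noncommCoprod r2 r12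

theorem rho_apply (g h : GL (Fin 2) F) : rho (g, h) = r1 g * r2 h := rfl

end G2
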