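import Cfsg.Agent.G2.C

/-! The centralizer of the involution `z` in the automorphism group of the Lie algebra. -/

set_option autoImplicit false
set_option linter.unusedSectionVars false
set_option linter.unusedSimpArgs false

namespace G2

open Cfsg.Lie Matrix
open scoped MatrixGroups

variable {F : Type*} [Field F]

def mk2 (a b c d : F) (h : a * d - b * c ≠ 0) : GL (Fin 2) F :=
  GeneralLinearGroup.mkOfDetNeZero !![a, b; c, d] (by rwa [det_fin_two_of])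

section
variable (a b c d : F) (h : a * d - b * c ≠ 0)
@[simp] theorem mk2_00 : mk2 a b c d h 0 0 = a := rfl
@[simp] theorem mk2_01 : mk2 a b c d h 0 1 = b := rfl
@[simp] theorem mk2_10 : mk2 a b c d h 1 0 = c := rfl
@[simp] theorem mk2_11 : mk2 a b c d h 1 1 = d := rfl
@[simp] theorem dt_mk2 : dt (mk2 a b c d h) = a * d - b * c := rfl
end

def zf (x : M F) : M F := ⟨x.p0, x.p1, x.p2, x.q0, x.q1, x.q2, -x.c0, -x.c1, -x.c2, -x.c3,
  -x.d0, -x.d1, -x.d2, -x.d3⟩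

def eP (p0 p1 p2 q0 q1 q2 : F) : M F := ⟨p0, p1, p2, q0, q1, q2, 0, 0, 0, 0, 0, 0, 0, 0⟩

def eW (c0 c1 c2 c3 d0 d1 d2 d3 : F) : M F := ⟨0, 0, 0, 0, 0, 0, c0, c1, c2, c3, d0, d1, d2, d3⟩

def zr : M F := ⟨0, 0, 0, 0, 0, 0, 0, 0, 0, 0, 0, 0, 0, 0⟩

def sc (k : F) (x : M F) : M F := ⟨x.p0, x.p1, x.p2, x.q0, x.q1, x.q2, k * x.c0, k * x.c1,
  k * x.c2, k * x.c3, k * x.d0, k * x.d1, k * x.d2, k * x.d3⟩

theorem Lin.zr {φ : M F → M F} (h : Lin φ) : φ zr = zr := by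
  have e : ∀ x : M F, (0 : F) • x = G2.zr := fun x => by ext <;> simp [smul_def, G2.zr]
  rw [← e G2.zr, h.smul, e, e]

/-- maps preserving the action of `sl₂ ⊕ sl₂` -/
structure Par (φ : M F → M F) : Prop where
  lin : Lin φ
  z : ∀ x, φ (zf x) = zf (φ x)
  br : ∀ x, zf x = x → ∀ y, br (φ x) (φ y) = φ (br x y)

theorem Par.comp {φ ψ : M F → M F} (h : Par φ) (k : Par ψ) : Par (fun x => φ (ψ x)) :=
  ⟨⟨fun x y => by rw [k.lin.add, h.lin.add], fun a x => by rw [k.lin.smul, h.lin.smul]⟩,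
    fun x => by rw [k.z, h.z], fun x hx y => by rw [h.br _ (by rw [← k.z, hx]), k.br x hx]⟩

theorem br_add (x y w : M F) : br (x + y) w = br x w + br y w := by
  ext <;> simp only [br, add_def] <;> ring

variable (h2 : (2 : F) ≠ 0)
include h2

theorem neg0 {a : F} (h : -a = a) : a = 0 := by
  have : 2 * a = 0 := by linear_combination -h
  exact (mul_eq_zero.1 this).resolve_left h2

theorem isP {x : M F} (h : zf x = x) : x = eP x.p0 x.p1 x.p2 x.q0 x.q1 x.q2 := by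
  simp only [M.ext_iff, zf, true_and] at h
  obtain ⟨a0, a1, a2, a3, a4, a5, a6, a7⟩ := h
  ext <;> simp only [eP] <;> exact neg0 h2 (by assumption)

theorem isW {x : M F} (h : zf x = (-1 : F) • x) :
    x = eW x.c0 x.c1 x.c2 x.c3 x.d0 x.d1 x.d2 x.d3 := by
  simp only [M.ext_iff, zf, smul_def, neg_mul, one_mul, and_true] at h
  obtain ⟨a0, a1, a2, a3, a4, a5⟩ := h
  ext <;> simp only [eW] <;> exact neg0 h2 (Eq.symm (by assumption))

theorem par_of {φ : M F → M F} (l : Lin φ) (z : ∀ x, φ (zf x) = zf (φ x))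
    (h1 : ∀ a b c y, br (φ (eP a b c 0 0 0)) (φ y) = φ (br (eP a b c 0 0 0) y))
    (h3 : ∀ a b c y, br (φ (eP 0 0 0 a b c)) (φ y) = φ (br (eP 0 0 0 a b c) y)) : Par φ := by
  refine ⟨l, z, fun x hx y => ?_⟩
  have e : x = eP x.p0 x.p1 x.p2 0 0 0 + eP 0 0 0 x.q0 x.q1 x.q2 := by
    rw [isP h2 hx]; ext <;> simp [eP, add_def]
  rw [e, l.add, br_add, br_add, l.add, h1, h3]

theorem par_R1 {a b c d e : F} (h : e * (a * d - b * c) = 1) : Par (R1 a b c d e) := by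
  refine par_of h2 (lin_R1 ..) (fun x => by ext <;> simp only [R1, zf] <;> ring)
    (fun u v w y => ?_) (fun u v w y => by ext <;> simp only [R1, eP, br] <;> ring)
  have : br (R1 a b c d e (eP u v w 0 0 0)) (R1 a b c d e y) =
      (e * (a * d - b * c)) • R1 a b c d e (br (eP u v w 0 0 0) y) := by
    ext <;> simp only [R1, eP, br, smul_def] <;> ring
  rw [this, h]; ext <;> simp only [smul_def, one_mul]

theorem par_R2 {a b c d e : F} (h : e * (a * d - b * c) = 1) : Par (R2 a b c d e) := by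
  refine par_of h2 (lin_R2 ..) (fun x => by ext <;> simp only [R2, zf] <;> ring)
    (fun u v w y => by ext <;> simp only [R2, eP, br] <;> ring) (fun u v w y => ?_)
  have : br (R2 a b c d e (eP 0 0 0 u v w)) (R2 a b c d e y) =
      (e * (a * d - b * c)) • R2 a b c d e (br (eP 0 0 0 u v w) y) := by
    ext <;> simp only [R2, eP, br, smul_def] <;> ring
  rw [this, h]; ext <;> simp only [smul_def, one_mul]

theorem par_r1 (g : GL (Fin 2) F) : Par (r1 g) := par_R1 h2 (inv_mul_cancel₀ (dt_ne g))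

theorem par_r2 (g : GL (Fin 2) F) : Par (r2 g) := par_R2 h2 (inv_mul_cancel₀ (dt_ne g))

theorem c2 {a : F} (k : ℕ) (h : 2 ^ k * a = 0) : a = 0 :=
  (mul_eq_zero.1 h).resolve_left (pow_ne_zero k h2)

theorem smul2 {x y : M F} (h : (2 : F) • x = (2 : F) • y) : x = y := by
  simp only [M.ext_iff, smul_def, mul_eq_mul_left_iff, h2, or_false] at h
  exact M.ext_iff.2 h

/-- automorphisms of `sl₂` are inner -/
theorem sl2_ex {e0 e1 e2 f0 f1 f2 k0 k1 k2 : F} (ne : ¬ (e0 = 0 ∧ e1 = 0 ∧ e2 = 0))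
    (a0 : 2 * (e1 * f2 - e2 * f1) = 2 * k0) (a1 : 4 * (e0 * f1 - e1 * f0) = 2 * k1)
    (a2 : -(4 * (e0 * f2 - e2 * f0)) = 2 * k2)
    (b0 : 2 * (k1 * e2 - k2 * e1) = 4 * e0) (b1 : 4 * (k0 * e1 - k1 * e0) = 4 * e1)
    (b2 : -(4 * (k0 * e2 - k2 * e0)) = 4 * e2)
    (d0 : 2 * (k1 * f2 - k2 * f1) = -4 * f0) (d1 : 4 * (k0 * f1 - k1 * f0) = -4 * f1)
    (d2 : -(4 * (k0 * f2 - k2 * f0)) = -4 * f2) :
    ∃ a b c d e : F, e * (a * d - b * c) = 1 ∧ e * -(a * c) = e0 ∧ e * a ^ 2 = e1 ∧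
      e * -c ^ 2 = e2 ∧ e * (b * d) = f0 ∧ e * -b ^ 2 = f1 ∧ e * d ^ 2 = f2 := by
  have hE : e0 ^ 2 + e1 * e2 = 0 :=
    c2 h2 3 (by linear_combination -(2 * e0 * b0 + e2 * b1 + e1 * b2))
  have hF : f0 ^ 2 + f1 * f2 = 0 :=
    c2 h2 3 (by linear_combination (2 * f0 * d0 + f2 * d1 + f1 * d2))
  have ht : 2 * e0 * f0 + e1 * f2 + e2 * f1 = 1 := by
    by_contra hn
    have hn' := sub_ne_zero.2 hn
    refine ne ⟨(mul_eq_zero.1 (c2 h2 2 ?_)).resolve_left hn',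
      (mul_eq_zero.1 (c2 h2 2 ?_)).resolve_left hn', (mul_eq_zero.1 (c2 h2 2 ?_)).resolve_left hn'⟩
    · linear_combination b0 + e2 * a1 - e1 * a2 + 8 * f0 * hE
    · linear_combination b1 + 2 * e1 * a0 - 2 * e0 * a1 + 8 * f1 * hE
    · linear_combination b2 - 2 * e2 * a0 + 2 * e0 * a2 + 8 * f2 * hE
  suffices h : ∃ a c : F, f2 * a ^ 2 - 2 * f0 * a * c - f1 * c ^ 2 ≠ 0 ∧
      -(a * c) = (f2 * a ^ 2 - 2 * f0 * a * c - f1 * c ^ 2) * e0 ∧
      a ^ 2 = (f2 * a ^ 2 - 2 * f0 * a * c - f1 * c ^ 2) * e1 ∧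
      -c ^ 2 = (f2 * a ^ 2 - 2 * f0 * a * c - f1 * c ^ 2) * e2 by
    obtain ⟨a, c, n, h0, h1, h3⟩ := h
    have i := inv_mul_cancel₀ n
    generalize (f2 * a ^ 2 - 2 * f0 * a * c - f1 * c ^ 2)⁻¹ = e at i
    refine ⟨a, f0 * a + f1 * c, c, f2 * a - f0 * c, e, by linear_combination i,
      by linear_combination e * h0 + e0 * i, by linear_combination e * h1 + e1 * i,
      by linear_combination e * h3 + e2 * i, by linear_combination f0 * i + e * a * c * hF,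
      by linear_combination f1 * i - e * a ^ 2 * hF, by linear_combination f2 * i + e * c ^ 2 * hF⟩
  by_cases h1 : e1 = 0
  · have h0 : e0 = 0 := pow_eq_zero_iff two_ne_zero |>.1 (by linear_combination hE - e2 * h1)
    have h3 : e2 ≠ 0 := fun h3 => ne ⟨h0, h1, h3⟩
    subst h0 h1
    have : f2 * 0 ^ 2 - 2 * f0 * 0 * e2 - f1 * e2 ^ 2 = -e2 := by linear_combination -e2 * ht
    exact ⟨0, e2, by rw [this]; exact neg_ne_zero.2 h3, by ring, by ring, by rw [this]; ring⟩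
  · have : f2 * e1 ^ 2 - 2 * f0 * e1 * -e0 - f1 * (-e0) ^ 2 = e1 := by
      linear_combination e1 * ht - f1 * hE
    exact ⟨e1, -e0, by rwa [this], by rw [this]; ring, by rw [this]; ring,
      by rw [this]; linear_combination -hE⟩

theorem nil_q {x : M F} (hx : zf x = x)
    (h : ∀ w, zf w = (-1 : F) • w → br x (br x w) = zr) : x = eP x.p0 x.p1 x.p2 0 0 0 := by
  have e := isP h2 hx
  generalize x.p0 = p0, x.p1 = p1, x.p2 = p2, x.q0 = q0, x.q1 = q1, x.q2 = q2 at e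
  subst e
  have w0 := h (eW 1 0 0 0 0 0 0 0) (by ext <;> simp [zf, eW, smul_def])
  have w1 := h (eW 0 1 0 0 0 0 0 0) (by ext <;> simp [zf, eW, smul_def])
  have w2 := h (eW 0 0 1 0 0 0 0 0) (by ext <;> simp [zf, eW, smul_def])
  have w3 := h (eW 0 0 0 1 0 0 0 0) (by ext <;> simp [zf, eW, smul_def])
  have a0 := congrArg M.c0 w0
  have a1 := congrArg M.c1 w1
  have a2 := congrArg M.c2 w2
  have a3 := congrArg M.c2 w0
  have a4 := congrArg M.c1 w3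
  simp only [br, eP, eW, zr] at a0 a1 a2 a3 a4
  have q1' : q1 = 0 := pow_eq_zero_iff two_ne_zero |>.1 (c2 h2 3 (by linear_combination a3))
  have q2' : q2 = 0 := pow_eq_zero_iff two_ne_zero |>.1 (c2 h2 3 (by linear_combination a4))
  subst q1' q2'
  have q0' : q0 = 0 :=
    pow_eq_zero_iff two_ne_zero |>.1 (c2 h2 5 (by linear_combination a0 + a2 - 2 * a1))
  rw [q0']

theorem scal {ψ : M F → M F} (h : Par ψ) (E1 : ψ (eP 0 1 0 0 0 0) = eP 0 1 0 0 0 0)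
    (F1 : ψ (eP 0 0 1 0 0 0) = eP 0 0 1 0 0 0) (E2 : ψ (eP 0 0 0 0 1 0) = eP 0 0 0 0 1 0)
    (F2 : ψ (eP 0 0 0 0 0 1) = eP 0 0 0 0 0 1) : ∃ k : F, ∀ x, ψ x = sc k x := by
  have zP : ∀ a b c d e f : F, zf (eP a b c d e f) = eP a b c d e f := fun _ _ _ _ _ _ => by
    simp [zf, eP]
  have H1 : ψ (eP 1 0 0 0 0 0) = eP 1 0 0 0 0 0 := smul2 h2 (by
    have := h.br _ (zP 0 1 0 0 0 0) (eP 0 0 1 0 0 0)
    have e : br (eP 0 1 0 0 0 0 : M F) (eP 0 0 1 0 0 0) = (2 : F) • eP 1 0 0 0 0 0 := by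
      ext <;> simp [br, eP, smul_def]
    rw [E1, F1, e, h.lin.smul] at this
    exact this.symm)
  have H2 : ψ (eP 0 0 0 1 0 0) = eP 0 0 0 1 0 0 := smul2 h2 (by
    have := h.br _ (zP 0 0 0 0 1 0) (eP 0 0 0 0 0 1)
    have e : br (eP 0 0 0 0 1 0 : M F) (eP 0 0 0 0 0 1) = (2 : F) • eP 0 0 0 1 0 0 := by
      ext <;> simp [br, eP, smul_def]
    rw [E2, F2, e, h.lin.smul] at this
    exact this.symm)
  have cE1 := h.br _ (zP 0 1 0 0 0 0)
  have cF1 := h.br _ (zP 0 0 1 0 0 0)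
  have cE2 := h.br _ (zP 0 0 0 0 1 0)
  have cF2 := h.br _ (zP 0 0 0 0 0 1)
  have cH2 := h.br _ (zP 0 0 0 1 0 0)
  rw [E1] at cE1; rw [F1] at cF1; rw [E2] at cE2; rw [F2] at cF2; rw [H2] at cH2
  have W : ∀ a b c d : F, ψ (eW a b c d 0 0 0 0) = eW (ψ (eW a b c d 0 0 0 0)).c0
      (ψ (eW a b c d 0 0 0 0)).c1 (ψ (eW a b c d 0 0 0 0)).c2 (ψ (eW a b c d 0 0 0 0)).c3
      0 0 0 0 := fun a b c d => by
    have e := isW h2 (x := ψ (eW a b c d 0 0 0 0))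
      (by rw [← h.z, ← h.lin.smul]; congr 1; ext <;> simp [zf, eW, smul_def])
    have := cE1 (eW a b c d 0 0 0 0)
    rw [show br (eP 0 1 0 0 0 0 : M F) (eW a b c d 0 0 0 0) = zr by ext <;> simp [br, eP, eW, zr],
      h.lin.zr, e] at this
    refine e.trans ?_
    clear e
    generalize ψ (eW a b c d 0 0 0 0) = u at this ⊢
    have a0 := congrArg M.c0 this
    have a1 := congrArg M.c1 this
    have a2 := congrArg M.c2 this
    have a3 := congrArg M.c3 this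
    simp only [br, eP, eW, zr] at a0 a1 a2 a3
    congr 1 <;> refine c2 h2 1 ?_
    exacts [by linear_combination a0, by linear_combination a1, by linear_combination a2,
      by linear_combination a3]
  obtain ⟨k, f3⟩ : ∃ k, ψ (eW 0 0 0 1 0 0 0 0) = eW 0 0 0 k 0 0 0 0 := by
    have := cH2 (eW 0 0 0 1 0 0 0 0)
    rw [show br (eP 0 0 0 1 0 0 : M F) (eW 0 0 0 1 0 0 0 0) = (6 : F) • eW 0 0 0 1 0 0 0 0 by
      ext <;> simp [br, eP, eW, smul_def], h.lin.smul, W] at this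
    have b := cE2 (eW 0 0 0 1 0 0 0 0)
    rw [show br (eP 0 0 0 0 1 0 : M F) (eW 0 0 0 1 0 0 0 0) = zr by
      ext <;> simp [br, eP, eW, zr], h.lin.zr, W] at b
    refine ⟨(ψ (eW 0 0 0 1 0 0 0 0)).c3, (W 0 0 0 1).trans ?_⟩
    generalize ψ (eW 0 0 0 1 0 0 0 0) = u at this b ⊢
    have a1 := congrArg M.c1 b
    have a2 := congrArg M.c2 b
    have a3 := congrArg M.c2 this
    simp only [br, eP, eW, zr, smul_def] at a1 a2 a3
    congr 1
    exacts [c2 h2 1 (by linear_combination a1), c2 h2 2 (by linear_combination a2),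
      c2 h2 2 (by linear_combination -a3)]
  obtain ⟨k', f0⟩ : ∃ k, ψ (eW 1 0 0 0 0 0 0 0) = eW k 0 0 0 0 0 0 0 := by
    have := cH2 (eW 1 0 0 0 0 0 0 0)
    rw [show br (eP 0 0 0 1 0 0 : M F) (eW 1 0 0 0 0 0 0 0) = (-6 : F) • eW 1 0 0 0 0 0 0 0 by
      ext <;> simp [br, eP, eW, smul_def], h.lin.smul, W] at this
    have b := cF2 (eW 1 0 0 0 0 0 0 0)
    rw [show br (eP 0 0 0 0 0 1 : M F) (eW 1 0 0 0 0 0 0 0) = zr by
      ext <;> simp [br, eP, eW, zr], h.lin.zr, W] at b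
    refine ⟨(ψ (eW 1 0 0 0 0 0 0 0)).c0, (W 1 0 0 0).trans ?_⟩
    generalize ψ (eW 1 0 0 0 0 0 0 0) = u at this b ⊢
    have a1 := congrArg M.c1 b
    have a2 := congrArg M.c2 b
    have a3 := congrArg M.c1 this
    simp only [br, eP, eW, zr, smul_def] at a1 a2 a3
    congr 1
    exacts [c2 h2 2 (by linear_combination a3), c2 h2 2 (by linear_combination a1),
      c2 h2 1 (by linear_combination a2)]
  have f2 : ψ (eW 0 0 1 0 0 0 0 0) = eW 0 0 k 0 0 0 0 0 := smul2 h2 (by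
    have := cF2 (eW 0 0 0 1 0 0 0 0)
    rw [show br (eP 0 0 0 0 0 1 : M F) (eW 0 0 0 1 0 0 0 0) = (2 : F) • eW 0 0 1 0 0 0 0 0 by
      ext <;> simp [br, eP, eW, smul_def], h.lin.smul, f3] at this
    rw [← this]; ext <;> simp [br, eP, eW, smul_def])
  have f1 : ψ (eW 0 1 0 0 0 0 0 0) = eW 0 k 0 0 0 0 0 0 := smul2 h2 (smul2 h2 (by
    have := cF2 (eW 0 0 1 0 0 0 0 0)
    rw [show br (eP 0 0 0 0 0 1 : M F) (eW 0 0 1 0 0 0 0 0) = (2 : F) • (2 : F) • eW 0 1 0 0 0 0 0 0 by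
      ext <;> simp [br, eP, eW, smul_def] <;> norm_num, h.lin.smul, h.lin.smul, f2] at this
    rw [← this]; ext <;> simp [br, eP, eW, smul_def] <;> ring))
  have kk : k' = k := by
    have := cE2 (eW 1 0 0 0 0 0 0 0)
    rw [show br (eP 0 0 0 0 1 0 : M F) (eW 1 0 0 0 0 0 0 0) = (2 : F) • eW 0 1 0 0 0 0 0 0 by
      ext <;> simp [br, eP, eW, smul_def], h.lin.smul, f0, f1] at this
    have a := congrArg M.c1 this
    simp only [br, eP, eW, smul_def] at a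
    exact mul_left_cancel₀ h2 (by linear_combination a)
  subst kk
  have g : ∀ a b c d a' b' c' d' : F, ψ (eW a b c d 0 0 0 0) = eW a' b' c' d' 0 0 0 0 →
      ψ (eW 0 0 0 0 a b c d) = eW 0 0 0 0 a' b' c' d' := fun a b c d a' b' c' d' e => smul2 h2 (by
    have := cF1 (eW a b c d 0 0 0 0)
    rw [show br (eP 0 0 1 0 0 0 : M F) (eW a b c d 0 0 0 0) = (2 : F) • eW 0 0 0 0 a b c d by
      ext <;> simp [br, eP, eW, smul_def], h.lin.smul, e] at this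
    rw [← this]; ext <;> simp [br, eP, eW, smul_def])
  refine ⟨k', fun x => ?_⟩
  have e : x = x.p0 • eP 1 0 0 0 0 0 + x.p1 • eP 0 1 0 0 0 0 + x.p2 • eP 0 0 1 0 0 0 +
      x.q0 • eP 0 0 0 1 0 0 + x.q1 • eP 0 0 0 0 1 0 + x.q2 • eP 0 0 0 0 0 1 +
      x.c0 • eW 1 0 0 0 0 0 0 0 + x.c1 • eW 0 1 0 0 0 0 0 0 + x.c2 • eW 0 0 1 0 0 0 0 0 +
      x.c3 • eW 0 0 0 1 0 0 0 0 + x.d0 • eW 0 0 0 0 1 0 0 0 + x.d1 • eW 0 0 0 0 0 1 0 0 +
      x.d2 • eW 0 0 0 0 0 0 1 0 + x.d3 • eW 0 0 0 0 0 0 0 1 := by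
    ext <;> simp only [eP, eW, add_def, smul_def] <;> ring
  conv_lhs => rw [e]
  simp only [h.lin.add, h.lin.smul, H1, E1, F1, H2, E2, F2, f0, f1, f2, f3, g _ _ _ _ _ _ _ _ f0,
    g _ _ _ _ _ _ _ _ f1, g _ _ _ _ _ _ _ _ f2, g _ _ _ _ _ _ _ _ f3]
  ext <;> simp only [eP, eW, add_def, smul_def, sc] <;> ring

omit h2 in
theorem ex_gl {a b c d e : F} (h : e * (a * d - b * c) = 1) :
    ∃ g : GL (Fin 2) F, (∀ x, r1 g x = R1 a b c d e x) ∧ ∀ x, r2 g x = R2 a b c d e x := by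
  have n : a * d - b * c ≠ 0 := right_ne_zero_of_mul_eq_one h
  refine ⟨mk2 a b c d n, fun x => ?_, fun x => ?_⟩
  · rw [r1_apply, eq_inv_of_mul_eq_one_left h]; rfl
  · rw [r2_apply, eq_inv_of_mul_eq_one_left h]; rfl

theorem step1 {φ : Equiv.Perm (M F)} (h : Par φ) : ∃ g : GL (Fin 2) F,
    φ (eP 0 1 0 0 0 0) = r1 g (eP 0 1 0 0 0 0) ∧ φ (eP 0 0 1 0 0 0) = r1 g (eP 0 0 1 0 0 0) := by
  have zP : ∀ a b c d e f : F, zf (eP a b c d e f) = eP a b c d e f := fun _ _ _ _ _ _ => by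
    simp [zf, eP]
  have k : ∀ x, zf x = x → (∀ w, zf w = (-1 : F) • w → br x (br x w) = zr) →
      φ x = eP (φ x).p0 (φ x).p1 (φ x).p2 0 0 0 := fun x hx hw => by
    refine nil_q h2 (by rw [← h.z, hx]) fun w e => ?_
    obtain ⟨w, rfl⟩ := φ.surjective w
    rw [← h.z, ← h.lin.smul] at e
    rw [h.br x hx, h.br x hx, hw w (φ.injective e), h.lin.zr]
  have E := k (eP 0 1 0 0 0 0) (zP ..) fun w e => by
    rw [isW h2 e]; ext <;> simp [br, eP, eW, zr]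
  have F' := k (eP 0 0 1 0 0 0) (zP ..) fun w e => by
    rw [isW h2 e]; ext <;> simp [br, eP, eW, zr]
  have H := isP h2 (x := φ (eP 1 0 0 0 0 0)) (by rw [← h.z, zP])
  have a := h.br _ (zP 0 1 0 0 0 0) (eP 0 0 1 0 0 0)
  have b := h.br _ (zP 1 0 0 0 0 0) (eP 0 1 0 0 0 0)
  have d := h.br _ (zP 1 0 0 0 0 0) (eP 0 0 1 0 0 0)
  rw [show br (eP 0 1 0 0 0 0 : M F) (eP 0 0 1 0 0 0) = (2 : F) • eP 1 0 0 0 0 0 by
    ext <;> simp [br, eP, smul_def], h.lin.smul, E, F', H] at a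
  rw [show br (eP 1 0 0 0 0 0 : M F) (eP 0 1 0 0 0 0) = (4 : F) • eP 0 1 0 0 0 0 by
    ext <;> simp [br, eP, smul_def], h.lin.smul, E, H] at b
  rw [show br (eP 1 0 0 0 0 0 : M F) (eP 0 0 1 0 0 0) = (-4 : F) • eP 0 0 1 0 0 0 by
    ext <;> simp [br, eP, smul_def], h.lin.smul, F', H] at d
  have ne : φ (eP 0 1 0 0 0 0) ≠ zr := fun e => by
    have := congrArg M.p1 (φ.injective (e.trans h.lin.zr.symm))
    simp [eP, zr] at this
  rw [E] at ne
  rw [E, F']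
  generalize (φ (eP 0 1 0 0 0 0)) = u, (φ (eP 0 0 1 0 0 0)) = v, (φ (eP 1 0 0 0 0 0)) = w at a b d ne
  simp only [M.ext_iff, br, eP, smul_def] at a b d
  obtain ⟨a', b', c', d', e, n, h0, h1, h3, h4, h5, h6⟩ := sl2_ex h2 (e0 := u.p0) (e1 := u.p1)
    (e2 := u.p2) (f0 := v.p0) (f1 := v.p1) (f2 := v.p2) (k0 := w.p0) (k1 := w.p1) (k2 := w.p2)
    (fun e => ne (by rw [e.1, e.2.1, e.2.2]; rfl)) (by linear_combination a.1)
    (by linear_combination a.2.1) (by linear_combination a.2.2.1) (by linear_combination b.1)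
    (by linear_combination b.2.1) (by linear_combination b.2.2.1) (by linear_combination d.1)
    (by linear_combination d.2.1) (by linear_combination d.2.2.1)
  obtain ⟨g, hg, -⟩ := ex_gl n
  refine ⟨g, ?_, ?_⟩ <;> rw [hg]
  · rw [← h0, ← h1, ← h3]; ext <;> simp only [R1, eP] <;> ring
  · rw [← h4, ← h5, ← h6]; ext <;> simp only [R1, eP] <;> ring

theorem step2 {φ : Equiv.Perm (M F)} (h : Par φ) (E1 : φ (eP 0 1 0 0 0 0) = eP 0 1 0 0 0 0)
    (F1 : φ (eP 0 0 1 0 0 0) = eP 0 0 1 0 0 0) : ∃ g : GL (Fin 2) F,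
    φ (eP 0 0 0 0 1 0) = r2 g (eP 0 0 0 0 1 0) ∧ φ (eP 0 0 0 0 0 1) = r2 g (eP 0 0 0 0 0 1) := by
  have zP : ∀ a b c d e f : F, zf (eP a b c d e f) = eP a b c d e f := fun _ _ _ _ _ _ => by
    simp [zf, eP]
  have k : ∀ a b c : F, φ (eP 0 0 0 a b c) = eP 0 0 0 (φ (eP 0 0 0 a b c)).q0
      (φ (eP 0 0 0 a b c)).q1 (φ (eP 0 0 0 a b c)).q2 := fun a b c => by
    have e := isP h2 (x := φ (eP 0 0 0 a b c)) (by rw [← h.z, zP])
    have u := h.br _ (zP 0 1 0 0 0 0) (eP 0 0 0 a b c)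
    have v := h.br _ (zP 0 0 1 0 0 0) (eP 0 0 0 a b c)
    rw [show br (eP 0 1 0 0 0 0 : M F) (eP 0 0 0 a b c) = zr by ext <;> simp [br, eP, zr],
      h.lin.zr, E1, e] at u
    rw [show br (eP 0 0 1 0 0 0 : M F) (eP 0 0 0 a b c) = zr by ext <;> simp [br, eP, zr],
      h.lin.zr, F1, e] at v
    refine e.trans ?_
    clear e
    generalize φ (eP 0 0 0 a b c) = y at u v ⊢
    simp only [M.ext_iff, br, eP, zr] at u v
    congr 1
    exacts [c2 h2 2 (by linear_combination -u.2.1), c2 h2 1 (by linear_combination -v.1),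
      c2 h2 1 (by linear_combination u.1)]
  have a := h.br _ (zP 0 0 0 0 1 0) (eP 0 0 0 0 0 1)
  have b := h.br _ (zP 0 0 0 1 0 0) (eP 0 0 0 0 1 0)
  have d := h.br _ (zP 0 0 0 1 0 0) (eP 0 0 0 0 0 1)
  rw [show br (eP 0 0 0 0 1 0 : M F) (eP 0 0 0 0 0 1) = (2 : F) • eP 0 0 0 1 0 0 by
    ext <;> simp [br, eP, smul_def], h.lin.smul, k, k 0 0 1, k 1 0 0] at a
  rw [show br (eP 0 0 0 1 0 0 : M F) (eP 0 0 0 0 1 0) = (4 : F) • eP 0 0 0 0 1 0 by
    ext <;> simp [br, eP, smul_def], h.lin.smul, k, k 0 1 0] at b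
  rw [show br (eP 0 0 0 1 0 0 : M F) (eP 0 0 0 0 0 1) = (-4 : F) • eP 0 0 0 0 0 1 by
    ext <;> simp [br, eP, smul_def], h.lin.smul, k, k 0 0 1] at d
  have ne : φ (eP 0 0 0 0 1 0) ≠ zr := fun e => by
    have := congrArg M.q1 (φ.injective (e.trans h.lin.zr.symm))
    simp [eP, zr] at this
  rw [k] at ne
  rw [k, k 0 0 1]
  generalize (φ (eP 0 0 0 0 1 0)) = u, (φ (eP 0 0 0 0 0 1)) = v, (φ (eP 0 0 0 1 0 0)) = w at a b d ne
  simp only [M.ext_iff, br, eP, smul_def] at a b d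
  obtain ⟨-, -, -, a0, a1, a2, -⟩ := a
  obtain ⟨-, -, -, b0, b1, b2, -⟩ := b
  obtain ⟨-, -, -, d0, d1, d2, -⟩ := d
  obtain ⟨a', b', c', d', e, n, h0, h1, h3, h4, h5, h6⟩ := sl2_ex h2 (e0 := u.q0) (e1 := u.q1)
    (e2 := u.q2) (f0 := v.q0) (f1 := v.q1) (f2 := v.q2) (k0 := w.q0) (k1 := w.q1) (k2 := w.q2)
    (fun e => ne (by rw [e.1, e.2.1, e.2.2]; rfl)) (by linear_combination a0)
    (by linear_combination a1) (by linear_combination a2) (by linear_combination b0)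
    (by linear_combination b1) (by linear_combination b2) (by linear_combination d0)
    (by linear_combination d1) (by linear_combination d2)
  obtain ⟨g, -, hg⟩ := ex_gl n
  refine ⟨g, ?_, ?_⟩ <;> rw [hg]
  · rw [← h0, ← h1, ← h3]; ext <;> simp only [R2, eP] <;> ring
  · rw [← h4, ← h5, ← h6]; ext <;> simp only [R2, eP] <;> ring

omit h2 in
theorem inv_fix {φ ψ : Equiv.Perm (M F)} {x : M F} (h : φ x = ψ x) : (ψ⁻¹ * φ) x = x := by
  rw [Equiv.Perm.mul_apply, h]; simp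

theorem par_rho {φ : Equiv.Perm (M F)} (h : Par φ) : ∃ g k, φ = rho (g, k) := by
  obtain ⟨g, E1, F1⟩ := step1 h2 h
  have h' : Par (r1 g⁻¹ * φ : Equiv.Perm (M F)) := (par_r1 h2 g⁻¹).comp h
  rw [map_inv] at h'
  replace E1 := inv_fix E1
  replace F1 := inv_fix F1
  obtain ⟨k, E2, F2⟩ := step2 h2 h' E1 F1
  have h'' : Par (r2 k⁻¹ * ((r1 g)⁻¹ * φ) : Equiv.Perm (M F)) := (par_r2 h2 k⁻¹).comp h'
  have fx : ∀ a b c : F, r2 k (eP a b c 0 0 0) = eP a b c 0 0 0 := fun a b c => by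
    rw [r2_apply]; ext <;> simp [R2, eP]
  rw [map_inv] at h''
  obtain ⟨c, hc⟩ := scal h2 h'' (inv_fix (E1.trans (fx ..).symm)) (inv_fix (F1.trans (fx ..).symm))
    (inv_fix E2) (inv_fix F2)
  have c0 : c ≠ 0 := fun e => by
    have := hc (eW 1 0 0 0 0 0 0 0)
    rw [show sc c (eW 1 0 0 0 0 0 0 0) = zr by ext <;> simp [sc, eW, zr, e], ← h''.lin.zr] at this
    have := congrArg M.c0 (Equiv.injective _ this)
    simp [eW, zr] at this
  have n : c * c - 0 * 0 ≠ 0 := by simpa using c0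
  have e : (r2 k)⁻¹ * ((r1 g)⁻¹ * φ) = r1 (mk2 c 0 0 c n) := Equiv.ext fun x => by
    rw [hc, r1_apply]
    ext <;> simp [sc, R1] <;> field_simp
  refine ⟨g * mk2 c 0 0 c n, k, ?_⟩
  rw [rho_apply, map_mul, mul_assoc, (r12 _ _).eq, ← e]
  group

theorem dt_of_br {g k : GL (Fin 2) F} (h : Br (rho (g, k))) : dt g = dt k := by
  have := h (eW 1 0 0 0 0 0 0 0) (eW 0 0 0 1 0 0 0 0)
  have a := congrArg M.p1 this
  have b := congrArg M.p2 this
  have n := dt_ne g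
  have i := inv_mul_cancel₀ (dt_ne k)
  simp only [rho_apply, Equiv.Perm.mul_apply, r1_apply, r2_apply, R1, R2, br, eW] at a b
  refine inv_injective ?_
  generalize (dt g)⁻¹ = e, (dt k)⁻¹ = e' at *
  rw [dt] at n i
  generalize g 0 0 = a1, g 0 1 = b1, g 1 0 = c1, g 1 1 = d1, k 0 0 = a2, k 0 1 = b2, k 1 0 = c2',
    k 1 1 = d2 at *
  have t : e' ^ 4 * (a2 * d2 - b2 * c2') ^ 3 = e' := by
    rw [show e' ^ 4 * (a2 * d2 - b2 * c2') ^ 3 = e' * (e' * (a2 * d2 - b2 * c2')) ^ 3 by ring, i]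
    ring
  have a' : (e - e') * a1 ^ 2 = 0 := c2 h2 1 (by linear_combination 2 * a1 ^ 2 * t - a)
  have b' : (e - e') * c1 ^ 2 = 0 := c2 h2 1 (by linear_combination 2 * c1 ^ 2 * t + b)
  by_contra hn
  have hn' := sub_ne_zero.2 hn
  apply n
  rw [pow_eq_zero_iff two_ne_zero |>.1 ((mul_eq_zero.1 a').resolve_left hn'),
    pow_eq_zero_iff two_ne_zero |>.1 ((mul_eq_zero.1 b').resolve_left hn')]
  ring

/-- the centralizer of `z` -/
theorem cen_z {φ : Equiv.Perm (M F)} (h : φ ∈ Ga h2) (hz : ∀ x, φ (zf x) = zf (φ x)) :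
    ∃ g k, dt g = dt k ∧ φ = rho (g, k) := by
  obtain ⟨u, hu, rfl⟩ := h
  have b := br_al h2 hu
  obtain ⟨g, k, e⟩ := par_rho h2 ⟨lin_al h2 u, hz, fun x _ => b x⟩
  exact ⟨g, k, dt_of_br h2 (e ▸ b), e⟩

end G2
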