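import Cfsg.Agent.G2.D

/-! The subgroup `SO₄⁺(q)` of `G₂(q)`. -/

set_option autoImplicit false
set_option linter.unusedSectionVars false
set_option linter.unusedSimpArgs false

namespace G2

open Cfsg.Lie Matrix
open scoped MatrixGroups

variable {F : Type*} [Field F]

theorem gl_ext {g k : GL (Fin 2) F} (a : g 0 0 = k 0 0) (b : g 0 1 = k 0 1) (c : g 1 0 = k 1 0)
    (d : g 1 1 = k 1 1) : g = k :=
  Units.ext (Matrix.ext fun i j => by fin_cases i <;> fin_cases j <;> assumption)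

def up (t : F) : GL (Fin 2) F := mk2 1 t 0 1 (by simp)
def lo (t : F) : GL (Fin 2) F := mk2 1 0 t 1 (by simp)

theorem gen_sl {S : Subgroup (GL (Fin 2) F)} (hu : ∀ t, up t ∈ S) (hl : ∀ t, lo t ∈ S)
    {g : GL (Fin 2) F} (h : dt g = 1) : g ∈ S := by
  have k : ∀ g : GL (Fin 2) F, dt g = 1 → g 1 0 ≠ 0 → g ∈ S := fun g h n => by
    have e : g = up ((g 0 0 - 1) / g 1 0) * lo (g 1 0) * up ((g 1 1 - 1) / g 1 0) := by
      rw [dt] at h
      refine gl_ext ?_ ?_ ?_ ?_ <;> simp only [gl_mul, up, lo, mk2_00, mk2_01, mk2_10, mk2_11] <;>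
        field_simp
      · ring
      · linear_combination -h
      · ring
      · ring
    rw [e]; exact S.mul_mem (S.mul_mem (hu _) (hl _)) (hu _)
  by_cases n : g 1 0 = 0
  · refine (S.mul_mem_cancel_left (hl 1)).1 (k _ (by rw [dt_mul, h]; simp [lo]) ?_)
    have := dt_ne g
    rw [dt, n] at this
    simp only [gl_mul, lo, mk2_10, mk2_11, n]
    intro e; apply this
    linear_combination g 1 1 * e
  · exact k g h n

variable (h2 : (2 : F) ≠ 0)
include h2

theorem r1_mem {g : GL (Fin 2) F} (h : dt g = 1) : r1 g ∈ Ga h2 := by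
  refine gen_sl (S := (Ga h2).comap r1) (fun t => ?_) (fun t => ?_) h
  · have e : ∀ x, r1 (up t) x = X11 t x := fun x => by
      rw [r1_apply]; ext <;> simp [R1, X11, up] <;> ring
    exact mem_Ga h2 (fun x => by rw [e, gen11]) (gen11 (-t))
      fun x => by rw [e]; ext <;> simp only [X11] <;> ring
  · have e : ∀ x, r1 (lo t) x = X0 t x := fun x => by
      rw [r1_apply]; ext <;> simp [R1, X0, lo] <;> ring
    exact mem_Ga h2 (fun x => by rw [e, gen0]) (gen0 (-t))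
      fun x => by rw [e]; ext <;> simp only [X0] <;> ring

theorem r2_mem {g : GL (Fin 2) F} (h : dt g = 1) : r2 g ∈ Ga h2 := by
  refine gen_sl (S := (Ga h2).comap r2) (fun t => ?_) (fun t => ?_) h
  · have e : ∀ x, r2 (up t) x = X7 t x := fun x => by
      rw [r2_apply]; ext <;> simp [R2, X7, up] <;> ring
    exact mem_Ga h2 (fun x => by rw [e, gen7]) (gen7 (-t))
      fun x => by rw [e]; ext <;> simp only [X7] <;> ring
  · have e : ∀ x, r2 (lo t) x = X4 t x := fun x => by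
      rw [r2_apply]; ext <;> simp [R2, X4, lo] <;> ring
    exact mem_Ga h2 (fun x => by rw [e, gen4]) (gen4 (-t))
      fun x => by rw [e]; ext <;> simp only [X4] <;> ring

omit h2 in
theorem X5_inv (t : F) (x : M F) : X5 t (X5 (-t) x) = x := by ext <;> simp only [X5] <;> ring

omit h2 in
theorem X6_inv (t : F) (x : M F) : X6 t (X6 (-t) x) = x := by ext <;> simp only [X6] <;> ring

omit h2 in
def p5 (t : F) : Equiv.Perm (M F) :=
  ⟨X5 t, X5 (-t), fun x => by simpa using X5_inv (-t) x, X5_inv t⟩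

omit h2 in
def p6 (t : F) : Equiv.Perm (M F) :=
  ⟨X6 t, X6 (-t), fun x => by simpa using X6_inv (-t) x, X6_inv t⟩

theorem p5_mem (t : F) : p5 t ∈ Ga h2 := mem_Ga h2 (gen5 t) (gen5 (-t)) (X5_inv t)

theorem p6_mem (t : F) : p6 t ∈ Ga h2 := mem_Ga h2 (gen6 t) (gen6 (-t)) (X6_inv t)

theorem tor_mem {l : F} (n : l * 1 - 0 * 0 ≠ 0) (n' : 1 * l - 0 * 0 ≠ 0) :
    rho (mk2 l 0 0 1 n, mk2 1 0 0 l n') ∈ Ga h2 := by
  have l0 : l ≠ 0 := by simpa using n
  have e : rho (mk2 l 0 0 1 n, mk2 1 0 0 l n') = p6 (l / 2) * p5 (-1 / (2 * l)) * p6 (l / 2) *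
      (p6 (-1 / 2) * p5 (1 / 2) * p6 (-1 / 2)) := Equiv.ext fun x => by
    show r1 _ (r2 _ x) = X6 _ (X5 _ (X6 _ (X6 _ (X5 _ (X6 _ x)))))
    rw [r1_apply, r2_apply]
    ext <;> simp only [R1, R2, X5, X6, mk2_00, mk2_01, mk2_10, mk2_11, dt_mk2, mul_one, one_mul,
      mul_zero, sub_zero] <;> field_simp <;> ring
  rw [e]
  exact mul_mem (mul_mem (mul_mem (p6_mem h2 _) (p5_mem h2 _)) (p6_mem h2 _))
    (mul_mem (mul_mem (p6_mem h2 _) (p5_mem h2 _)) (p6_mem h2 _))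

theorem rho_mem {g k : GL (Fin 2) F} (h : dt g = dt k) : rho (g, k) ∈ Ga h2 := by
  have n : dt g * 1 - 0 * 0 ≠ 0 := by simpa using dt_ne g
  have n' : 1 * dt g - 0 * 0 ≠ 0 := by simpa using dt_ne g
  refine ((Ga h2).mul_mem_cancel_right (inv_mem (tor_mem h2 n n'))).1 ?_
  have di : ∀ u v : GL (Fin 2) F, dt u = dt v → dt (u * v⁻¹) = 1 := fun u v e =>
    mul_right_cancel₀ (dt_ne v) (by rw [← dt_mul, inv_mul_cancel_right, e, one_mul])
  rw [← map_inv, ← map_mul]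
  exact mul_mem (r1_mem h2 (di _ _ (by simp))) (r2_mem h2 (di _ _ (by simp [h])))

omit h2 in
theorem ad_one {a b c d e : F} (i : e * (a * d - b * c) = 1) (h1 : e * a ^ 2 = 1)
    (h3 : e * c ^ 2 = 0) (h4 : e * b ^ 2 = 0) : b = 0 ∧ c = 0 ∧ d = a := by
  have e0 := left_ne_zero_of_mul_eq_one i
  have b0 : b = 0 := pow_eq_zero_iff two_ne_zero |>.1 ((mul_eq_zero.1 h4).resolve_left e0)
  have c0 : c = 0 := pow_eq_zero_iff two_ne_zero |>.1 ((mul_eq_zero.1 h3).resolve_left e0)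
  subst b0 c0
  have a0 : a ≠ 0 := fun h => by simp [h] at h1
  exact ⟨rfl, rfl, mul_left_cancel₀ (mul_ne_zero e0 a0) (by linear_combination i - h1)⟩

omit h2 in
theorem rho_ker {g k : GL (Fin 2) F} (h : rho (g, k) = 1) :
    g 0 1 = 0 ∧ g 1 0 = 0 ∧ g 1 1 = g 0 0 ∧ k = g := by
  have f : ∀ x, r1 g (r2 k x) = x := fun x => congrArg (fun φ : Equiv.Perm (M F) => φ x) h
  have a1 := congrArg M.p1 (f (eP 0 1 0 0 0 0))
  have a2 := congrArg M.p2 (f (eP 0 1 0 0 0 0))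
  have a3 := congrArg M.p1 (f (eP 0 0 1 0 0 0))
  have b1 := congrArg M.q1 (f (eP 0 0 0 0 1 0))
  have b2 := congrArg M.q2 (f (eP 0 0 0 0 1 0))
  have b3 := congrArg M.q1 (f (eP 0 0 0 0 0 1))
  have c := congrArg M.c0 (f (eW 1 0 0 0 0 0 0 0))
  simp only [r1_apply, r2_apply, R1, R2, eP, eW] at a1 a2 a3 b1 b2 b3 c
  have i := inv_mul_cancel₀ (dt_ne k)
  obtain ⟨u1, u2, u3⟩ := ad_one (inv_mul_cancel₀ (dt_ne g)) (by linear_combination a1)
    (by linear_combination -a2) (by linear_combination -a3)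
  obtain ⟨v1, v2, v3⟩ := ad_one i (by linear_combination b1)
    (by linear_combination -b2) (by linear_combination -b3)
  have : k 0 0 = g 0 0 := by
    generalize (dt k)⁻¹ = e at *
    rw [dt, v1, v3] at i
    rw [v3, u1] at c
    linear_combination -k 0 0 * c + g 0 0 * (e * k 0 0 ^ 2 + 1) * i
  exact ⟨u1, u2, u3, gl_ext this (v1.trans u1.symm) (v2.trans u2.symm) (by rw [v3, u3, this])⟩

omit h2 in
theorem rho_sc {g : GL (Fin 2) F} (a : g 0 1 = 0) (b : g 1 0 = 0) (c : g 1 1 = g 0 0) :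
    rho (g, g) = 1 := Equiv.ext fun x => by
  have n := dt_ne g
  show r1 _ (r2 _ x) = x
  rw [r1_apply, r2_apply]
  rw [dt, a, b, c] at n ⊢
  have n' : g 0 0 ≠ 0 := fun e => n (by simp [e])
  ext <;> simp [R1, R2] <;> field_simp

end G2
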